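import Cfsg.Agent.Chars.Basic
import Cfsg.Agent.Chars.Basic.Restrict
import Cfsg.Agent.Chars.Induced.Gallagher
import Cfsg.Agent.Chars.Induced.Clifford

/-!
# Subgroups on which the largest degree drops
-/

set_option autoImplicit false

namespace CfsgLib.IsaacsPassman

open Cfsg CfsgLib.Chars CfsgLib.Chars.Induced
open scoped ComplexConjugate

universe u

variable {G : Type u} [Group G] [Fintype G] {b : ℕ}

/-- All irreducible degrees are at most `b`. -/
def DegreesLE (G : Type u) [Group G] (b : ℕ) : Prop :=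
  ∀ χ : IrrCharacter G, charDegree (χ : G → ℂ) ≤ b

theorem exists_over (H : Subgroup G) [Fintype H] (θ : IrrCharacter H) :
    ∃ χ : IrrCharacter G, mult (fun h : H => (χ : G → ℂ) h) θ ≠ 0 := by
  obtain ⟨χ, hχ⟩ := exists_mult_ne_zero (isCharacter_indFun H (isCharacter_coe θ)) fun h0 => by
    have h1 := congrFun h0 1
    rw [CfsgLib.Chars.Induced.indFun_one_apply, Pi.zero_apply, mul_eq_zero] at h1
    exact h1.elim (Nat.cast_ne_zero.2 H.index_ne_zero_of_finite) (map_one_ne_zero θ)
  exact ⟨χ, by rwa [← mult_indFun_irr]⟩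

theorem mult_mul_degree_le {H : Subgroup G} [Fintype H] (χ : IrrCharacter G) (θ : IrrCharacter H) :
    mult (fun h : H => (χ : G → ℂ) h) θ * charDegree (θ : H → ℂ) ≤ charDegree (χ : G → ℂ) := by
  obtain ⟨c, -, hc, hd⟩ := exists_restrict_coeff χ H
  have h1 : mult (fun h : H => (χ : G → ℂ) h) θ = c θ := by
    apply Nat.cast_injective (R := ℂ)
    rw [← classInner_eq_mult (isCharacter_restrict (isCharacter_coe χ) H), hc, classInner_sum_smul]
  rw [h1, hd]
  exact Finset.single_le_sum (f := fun η : IrrCharacter H => c η * charDegree (η : H → ℂ))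
    (fun _ _ => Nat.zero_le _) (Finset.mem_univ θ)

theorem degree_le_of_mult {H : Subgroup G} [Fintype H] (χ : IrrCharacter G) (θ : IrrCharacter H)
    (hm : mult (fun h : H => (χ : G → ℂ) h) θ ≠ 0) :
    charDegree (θ : H → ℂ) ≤ charDegree (χ : G → ℂ) :=
  (Nat.le_mul_of_pos_left _ (Nat.pos_of_ne_zero hm)).trans (mult_mul_degree_le χ θ)

theorem restrict_eq_of_degree_le {H : Subgroup G} [Fintype H] (χ : IrrCharacter G) (θ : IrrCharacter H)
    (hm : mult (fun h : H => (χ : G → ℂ) h) θ ≠ 0)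
    (hd : charDegree (χ : G → ℂ) ≤ charDegree (θ : H → ℂ)) (h : H) :
    (χ : G → ℂ) h = (θ : H → ℂ) h := by
  classical
  obtain ⟨c, -, hc, hd'⟩ := exists_restrict_coeff χ H
  have h1 : mult (fun h : H => (χ : G → ℂ) h) θ = c θ := by
    apply Nat.cast_injective (R := ℂ)
    rw [← classInner_eq_mult (isCharacter_restrict (isCharacter_coe χ) H), hc, classInner_sum_smul]
  rw [h1] at hm
  have hpos := charDegree_pos θ
  rw [← Finset.add_sum_erase _ _ (Finset.mem_univ θ)] at hd'
  have hle : c θ * charDegree (θ : H → ℂ) ≤ 1 * charDegree (θ : H → ℂ) := by omega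
  have hθ1 : c θ = 1 := by
    have := Nat.le_of_mul_le_mul_right hle hpos
    omega
  rw [hθ1, one_mul] at hd'
  have hrest : ∀ η ∈ Finset.univ.erase θ, c η = 0 := fun η hη => by
    have := Finset.sum_eq_zero_iff.1 (show ∑ η ∈ Finset.univ.erase θ, c η * charDegree (η : H → ℂ) = 0 by omega) η hη
    exact (mul_eq_zero.1 this).resolve_right (charDegree_pos η).ne'
  rw [show (χ : G → ℂ) h = _ from congrFun hc h, Finset.sum_apply,
    ← Finset.add_sum_erase _ _ (Finset.mem_univ θ), Finset.sum_eq_zero fun η hη => by simp [hrest η hη],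
    add_zero, hθ1]
  simp

theorem DegreesLE.subgroup (hb : DegreesLE G b) (H : Subgroup G) : DegreesLE H b := fun θ => by
  have := Fintype.ofFinite H
  obtain ⟨χ, hχ⟩ := exists_over H θ
  exact (degree_le_of_mult χ θ hχ).trans (hb χ)

theorem DegreesLE.quotient (hb : DegreesLE G b) (N : Subgroup G) [N.Normal] : DegreesLE (G ⧸ N) b :=
  fun χ => by rw [← charDegree_inflate N χ]; exact hb _

/-- A subgroup with a nonabelian quotient has all degrees at most `b / 2`. -/
theorem degrees_half (hb : DegreesLE G b) (N : Subgroup G) [N.Normal]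
    (hna : ¬ commutator G ≤ N) : DegreesLE N (b / 2) := by
  classical
  have := Fintype.ofFinite N
  have := Fintype.ofFinite (G ⧸ N)
  intro θ
  obtain ⟨χ, hχ⟩ := exists_over N θ
  rw [Nat.le_div_iff_mul_le two_pos, mul_comm]
  by_cases h2 : 2 * charDegree (θ : N → ℂ) ≤ charDegree (χ : G → ℂ)
  · exact h2.trans (hb χ)
  have hcl : charDegree (χ : G → ℂ) =
      mult (fun n : N => (χ : G → ℂ) n) θ * (inertia N (θ : N → ℂ)).index * charDegree (θ : N → ℂ) := by
    apply Nat.cast_injective (R := ℂ)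
    push_cast
    rw [coe_charDegree, coe_charDegree]
    exact clifford_one χ θ hχ
  have hle : charDegree (χ : G → ℂ) ≤ charDegree (θ : N → ℂ) := by
    rw [hcl] at h2 ⊢
    by_contra hlt
    rcases (show mult (fun n : N => (χ : G → ℂ) n) θ * (inertia N (θ : N → ℂ)).index ≤ 1 ∨
      2 ≤ mult (fun n : N => (χ : G → ℂ) n) θ * (inertia N (θ : N → ℂ)).index by omega) with h | h
    · exact hlt ((Nat.mul_le_mul_right _ h).trans (le_of_eq (one_mul _)))
    · exact h2 (Nat.mul_le_mul_right _ h)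
  have hres := restrict_eq_of_degree_le χ θ hχ hle
  obtain ⟨β, hβ⟩ : ∃ β : IrrCharacter (G ⧸ N), charDegree (β : G ⧸ N → ℂ) ≠ 1 := by
    by_contra! h
    apply hna
    have hbot : commutator (G ⧸ N) = ⊥ := commutator_eq_bot_iff.2 fun β => (charDegree_eq_one_iff β).1 (h β)
    rw [← QuotientGroup.ker_mk' N, ← Subgroup.map_eq_bot_iff, ← le_bot_iff, ← hbot, commutator_def,
      Subgroup.map_commutator, commutator_def]
    exact Subgroup.commutator_mono le_top le_top
  have hirr := gallagher_isIrrCharacter χ θ hres β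
  have hd : charDegree ((⟨_, hirr⟩ : IrrCharacter G) : G → ℂ) =
      charDegree (χ : G → ℂ) * charDegree (β : G ⧸ N → ℂ) := by
    refine charDegree_eq_of_map_one ?_
    push_cast
    rw [coe_charDegree, coe_charDegree]
    show (χ : G → ℂ) 1 * (β : G ⧸ N → ℂ) ((1 : G) : G ⧸ N) = _
    rw [QuotientGroup.mk_one]
  have h3 := hb ⟨_, hirr⟩
  rw [hd] at h3
  have hb2 : 2 ≤ charDegree (β : G ⧸ N → ℂ) := by have := charDegree_pos β; omega
  calc 2 * charDegree (θ : N → ℂ) ≤ 2 * charDegree (χ : G → ℂ) :=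
        Nat.mul_le_mul_left _ (degree_le_of_mult χ θ hχ)
    _ = charDegree (χ : G → ℂ) * 2 := mul_comm _ _
    _ ≤ _ := (Nat.mul_le_mul_left _ hb2).trans h3

/-- If the centraliser of `x` has a character of degree `b`, the conjugates of `x` commute. -/
theorem conj_mem_centralizer (hb : DegreesLE G b) (x : G)
    (C : Subgroup G) (hC : C = Subgroup.centralizer ({x} : Set G)) (ψ : IrrCharacter C)
    (hψ : charDegree (ψ : C → ℂ) = b) (g : G) :
    g⁻¹ * x * g ∈ C := by
  classical
  have hbpos : 0 < b := hψ ▸ charDegree_pos ψ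
  have hxC : x ∈ C := hC ▸ Subgroup.mem_centralizer_singleton_iff.2 rfl
  have hxZ : (⟨x, hxC⟩ : C) ∈ Subgroup.center C := Subgroup.mem_center_iff.2 fun c =>
    Subtype.ext (Subgroup.mem_centralizer_singleton_iff.1 (hC.le c.2))
  set φ := indFun C (ψ : C → ℂ) with hφdef
  have hφ : IsCharacter G φ := isCharacter_indFun C (isCharacter_coe ψ)
  obtain ⟨c, hc, hc'⟩ := exists_nat_coeff hφ
  have hrestr : ∀ χ : IrrCharacter G, c χ ≠ 0 → ∀ h : C, (χ : G → ℂ) h = (ψ : C → ℂ) h := by
    intro χ hχ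
    refine restrict_eq_of_degree_le χ ψ ?_ ((hb χ).trans hψ.ge)
    rw [← mult_indFun_irr, mult_ne_zero_iff hφ, hc, classInner_sum_smul]
    exact Nat.cast_ne_zero.2 hχ
  have hval : ∀ h : C, φ h = (∑ χ : IrrCharacter G, (c χ : ℂ)) * (ψ : C → ℂ) h := fun h => by
    rw [show φ h = _ from congrFun hc h, Finset.sum_apply, Finset.sum_mul]
    refine Finset.sum_congr rfl fun χ _ => ?_
    by_cases hχ : c χ = 0
    · simp [hχ]
    · simp [hrestr χ hχ h]
  have hsum : (∑ χ : IrrCharacter G, (c χ : ℂ)) = C.index := by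
    have h1 := hval 1
    rw [show ((1 : C) : G) = 1 from rfl, hφdef, CfsgLib.Chars.Induced.indFun_one_apply] at h1
    exact (mul_right_cancel₀ (map_one_ne_zero ψ) h1).symm
  by_contra hg
  have hnorm : ∀ h : G, ‖extendByZero C (ψ : C → ℂ) (h⁻¹ * x * h)‖ ≤ if h = g then 0 else (b : ℝ) := by
    intro h
    split_ifs with hh
    · subst hh; rw [extendByZero_notMem _ hg, norm_zero]
    · by_cases hm : h⁻¹ * x * h ∈ C
      · rw [extendByZero_mem _ hm, ← hψ, ← Complex.norm_natCast, coe_charDegree]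
        exact CfsgLib.Chars.norm_apply_le (isCharacter_coe ψ) _
      · rw [extendByZero_notMem _ hm, norm_zero]; exact Nat.cast_nonneg _
  have h1 := congrArg norm (hval ⟨x, hxC⟩)
  rw [hsum, norm_mul, norm_map_of_mem_center ψ hxZ, ← coe_charDegree, hψ, hφdef] at h1
  simp only [indFun, norm_mul, norm_inv, Complex.norm_natCast] at h1
  have h2 := (norm_sum_le _ _).trans (Finset.sum_le_sum fun h (_ : h ∈ Finset.univ) => hnorm h)
  rw [Finset.sum_ite, Finset.sum_const_zero, zero_add, Finset.sum_const, nsmul_eq_mul,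
    Finset.filter_ne', Finset.card_erase_of_mem (Finset.mem_univ g), Finset.card_univ,
    ← Nat.card_eq_fintype_card] at h2
  have hC0 : (0 : ℝ) < Nat.card C := Nat.cast_pos.2 Nat.card_pos
  rw [inv_mul_eq_iff_eq_mul₀ hC0.ne', ← mul_assoc, ← Nat.cast_mul, C.card_mul_index] at h1
  rw [h1] at h2
  have h3 : ((Nat.card G - 1 : ℕ) : ℝ) < Nat.card G := Nat.cast_lt.2 (by have := Nat.card_pos (α := G); omega)
  nlinarith [(Nat.cast_pos.2 hbpos : (0 : ℝ) < b)]

end CfsgLib.IsaacsPassman
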