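import Cfsg.Agent.Chars.IsaacsPassman.Basic

/-!
# Solvable monolithic quotients
-/

set_option autoImplicit false

namespace CfsgLib.IsaacsPassman

open Cfsg CfsgLib.Chars CfsgLib.Chars.Induced
open scoped ComplexConjugate commutatorElement

universe u

variable {b : ℕ}

theorem monolith {Q : Type u} [Group Q] [Fintype Q] (hb : DegreesLE Q b)
    (hne : commutator Q ≠ ⊥) (hab : ∀ x ∈ commutator Q, ∀ y ∈ commutator Q, x * y = y * x)
    (hmono : ∀ M : Subgroup Q, M.Normal → M ≠ ⊥ → commutator Q ≤ M) :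
    (∃ β : IrrCharacter Q, (∀ g, g ∉ Subgroup.center Q → (β : Q → ℂ) g = 0) ∧
      (Subgroup.center Q).index = charDegree (β : Q → ℂ) ^ 2 ∧ 2 ≤ charDegree (β : Q → ℂ)) ∨
    (Subgroup.center Q = ⊥ ∧ ∃ A : Subgroup Q, A.Normal ∧ (∀ x ∈ A, ∀ y ∈ A, x * y = y * x) ∧
      A.index ≤ b) := by
  classical
  by_cases hcen : commutator Q ≤ Subgroup.center Q
  · left
    obtain ⟨β, hβ⟩ : ∃ β : IrrCharacter Q, charDegree (β : Q → ℂ) ≠ 1 := by
      by_contra! h
      exact hne (commutator_eq_bot_iff.2 fun β => (charDegree_eq_one_iff β).1 (h β))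
    have hker : charKer (β : Q → ℂ) = ⊥ := by
      by_contra h
      exact hβ ((charDegree_eq_one_iff β).2 ((commutator_le_charKer_iff β).1
        (hmono _ (charKer_normal (isClassFunction_coe β)) h)))
    have hvan : ∀ g, g ∉ Subgroup.center Q → (β : Q → ℂ) g = 0 := by
      intro g hg
      obtain ⟨h, hh⟩ : ∃ h, h * g ≠ g * h := by
        by_contra! hh; exact hg (Subgroup.mem_center_iff.2 hh)
      have hz : ⁅h, g⁆ ∈ Subgroup.center Q :=
        hcen (Subgroup.commutator_mem_commutator (Subgroup.mem_top h) (Subgroup.mem_top g))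
      have h1 := map_mul_of_mem_center β hz g
      rw [show ⁅h, g⁆ * g = h * g * h⁻¹ by simp [commutatorElement_def],
        show (β : Q → ℂ) (h * g * h⁻¹) = (β : Q → ℂ) g from isClassFunction_coe β g h] at h1
      by_contra h0
      have h2 : (β : Q → ℂ) ⁅h, g⁆ = (β : Q → ℂ) 1 := by
        rw [eq_comm, ← sub_eq_zero] at h1
        have h3 : ((β : Q → ℂ) ⁅h, g⁆ / (β : Q → ℂ) 1 - 1) * (β : Q → ℂ) g = 0 := by
          rw [sub_mul, one_mul]; exact h1
        have h4 := sub_eq_zero.1 ((mul_eq_zero.1 h3).resolve_right h0)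
        exact (div_eq_one_iff_eq (map_one_ne_zero β)).1 h4
      have h5 : ⁅h, g⁆ ∈ charKer (β : Q → ℂ) := (mem_charKer_iff (isCharacter_coe β)).2 h2
      rw [hker, Subgroup.mem_bot, commutatorElement_eq_one_iff_mul_comm] at h5
      exact hh h5
    refine ⟨β, hvan, ?_, by have := charDegree_pos β; omega⟩
    have h1 := sum_mul_map_inv β β
    rw [if_pos rfl] at h1
    rw [← Finset.sum_filter_of_ne (p := fun g => g ∈ Subgroup.center Q) fun g _ hg => by
      by_contra hg'; exact hg (by rw [hvan g hg', zero_mul])] at h1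
    have hterm : ∀ g ∈ Finset.univ.filter (fun g => g ∈ Subgroup.center Q),
        (β : Q → ℂ) g * (β : Q → ℂ) g⁻¹ = ((charDegree (β : Q → ℂ) ^ 2 : ℕ) : ℂ) := by
      intro g hg
      rw [map_inv_eq_conj (isCharacter_coe β), Complex.mul_conj, Complex.normSq_eq_norm_sq,
        norm_map_of_mem_center β (Finset.mem_filter.1 hg).2, ← coe_charDegree, Complex.norm_natCast]
      push_cast; ring
    rw [Finset.sum_congr rfl hterm, Finset.sum_const, nsmul_eq_mul, ← Fintype.card_subtype,
      ← Nat.card_eq_fintype_card, ← Nat.cast_mul, Nat.cast_inj] at h1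
    refine Nat.eq_of_mul_eq_mul_left (Nat.card_pos (α := Subgroup.center Q)) ?_
    rw [Subgroup.card_mul_index]
    exact h1.symm
  right
  have hZ : Subgroup.center Q = ⊥ := by
    by_contra h; exact hcen (hmono _ inferInstance h)
  refine ⟨hZ, ?_⟩
  obtain ⟨A, ⟨hAn, hAE, hAab⟩, hmax⟩ := (Set.toFinite {A : Subgroup Q | A.Normal ∧ commutator Q ≤ A ∧
    ∀ x ∈ A, ∀ y ∈ A, x * y = y * x}).exists_maximal ⟨commutator Q, inferInstance, le_rfl, hab⟩
  haveI := hAn
  refine ⟨A, hAn, hAab, ?_⟩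
  haveI : IsMulCommutative A := ⟨⟨fun a c => Subtype.ext (hAab a a.2 c c.2)⟩⟩
  obtain ⟨e, he, he1⟩ := (Subgroup.bot_or_exists_ne_one _).resolve_left hne
  obtain ⟨l, hl⟩ := exists_linChar_ne_one (g := (⟨e, hAE he⟩ : A)) (by
    rw [commutator_eq_bot_iff.2 fun θ : IrrCharacter A => map_one_eq_one_of_isMulCommutative θ,
      Subgroup.mem_bot]
    exact fun h => he1 (congrArg Subtype.val h))
  set T := inertia A (linChar l : A → ℂ) with hT
  have hAT : A ≤ T := le_inertia (isClassFunction_coe _)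
  haveI hTn : T.Normal := ⟨fun t ht g => by
    have h : g * t * g⁻¹ = ⁅g, t⁆ * t := by simp [commutatorElement_def]
    rw [h]
    exact mul_mem (hAT (hAE (Subgroup.commutator_mem_commutator (Subgroup.mem_top g) (Subgroup.mem_top t)))) ht⟩
  have hTA : ⁅T, A⁆ = ⊥ := by
    by_contra h
    have hle : ⁅T, A⁆ ≤ (l.ker.map A.subtype) := by
      rw [Subgroup.commutator_le]
      intro t ht a ha
      refine ⟨⟨t * a * t⁻¹, hAn.conj_mem a ha t⟩ * (⟨a, ha⟩ : A)⁻¹, ?_, by simp [commutatorElement_def]⟩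
      refine MonoidHom.mem_ker.2 ?_
      rw [map_mul, map_inv, mul_inv_eq_one]
      have h1 := mem_inertia_iff_forall.1 ht ⟨a, ha⟩ ⟨t * a * t⁻¹, hAn.conj_mem a ha t⟩ rfl
      rw [linChar_apply, linChar_apply] at h1
      exact Units.ext h1
    obtain ⟨w, hw, hwe⟩ := hle (hmono _ (Subgroup.commutator_normal T A) h he)
    exact hl (by rw [show (⟨e, hAE he⟩ : A) = w from Subtype.ext hwe.symm]; exact MonoidHom.mem_ker.1 hw)
  have hTeq : T ≤ A := by
    intro y hy
    have hcom : ∀ a ∈ A, y * a = a * y := fun a ha => commutatorElement_eq_one_iff_mul_comm.1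
      (Subgroup.mem_bot.1 (hTA ▸ Subgroup.commutator_mem_commutator hy ha))
    set U : Set Q := insert y A
    have hU : ∀ u ∈ U, ∀ v ∈ U, u * v = v * u := by
      rintro u (rfl | hu) v (rfl | hv)
      · rfl
      · exact hcom v hv
      · exact (hcom u hu).symm
      · exact hAab u hu v hv
    haveI := Subgroup.isMulCommutative_closure hU
    have hle : A ≤ Subgroup.closure U := fun a ha => Subgroup.subset_closure (Set.mem_insert_of_mem _ ha)
    have hn : (Subgroup.closure U).Normal := ⟨fun t ht g => by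
      rw [show g * t * g⁻¹ = ⁅g, t⁆ * t by simp [commutatorElement_def]]
      exact mul_mem (hle (hAE (Subgroup.commutator_mem_commutator (Subgroup.mem_top g) (Subgroup.mem_top t)))) ht⟩
    exact hmax ⟨hn, hAE.trans hle, fun a ha c hc => congrArg Subtype.val
      (IsMulCommutative.is_comm.comm (⟨a, ha⟩ : Subgroup.closure U) ⟨c, hc⟩)⟩ hle
        (Subgroup.subset_closure (Set.mem_insert y _))
  have := Fintype.ofFinite A
  obtain ⟨χ, hχ⟩ := exists_over A (linChar l)
  have h := clifford_one χ (linChar l) hχ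
  rw [linChar_map_one, mul_one, ← coe_charDegree, ← Nat.cast_mul, Nat.cast_inj, ← hT,
    le_antisymm hTeq hAT] at h
  exact (Nat.le_mul_of_pos_left _ (Nat.pos_of_ne_zero hχ)).trans (h ▸ hb χ)

end CfsgLib.IsaacsPassman
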